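-- Team project OMG (S2415, helper94), package [MIXA] (helper53):
-- an isometry `x` of the minus form of odd prime order `r ∣ q² + 1` whose fixed space is
-- nondegenerate of plus type of dimension `2 k - 2` and whose moved space (dimension 4) is
-- irreducible: the orbit of every non-zero vector spans it.
import Mathlib
import Cfsg.Agent.Lib.Helper94.OMG.Defs
import Cfsg.Agent.Lib.Helper39.OElm.ExistME
import Cfsg.Agent.Lib.Helper25.OElp.SplitE
import Cfsg.Agent.Lib.Helper44.OElp.Inst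
import Cfsg.Agent.Lib.Helper44.OElp.Asm
import Cfsg.Agent.Lib.Helper1.OElp.SumE
import Cfsg.Agent.Lib.Helper34.OTSP.DimI
import Cfsg.Agent.Lib.Helper53.OElm.MinusQE

set_option autoImplicit false
open scoped Matrix MatrixGroups

namespace Cfsg.Agent.Lib.Helper53.OMG

open Cfsg.Agent.Lib.Helper23.OHyp Cfsg.Agent.Lib.Helper64.OParM Cfsg.Agent.Lib.Helper94.OMG
open Module

universe u

/-- `q ^ 2 + 1` has an odd prime divisor. -/
theorem exists_odd_prime_dvd (q : ℕ) (hq : 2 ≤ q) :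
    ∃ r : ℕ, r.Prime ∧ r ≠ 2 ∧ r ∣ q ^ 2 + 1 := by
  rcases Nat.even_or_odd' q with ⟨s, hs | hs⟩
  · have hn : q ^ 2 + 1 = 4 * (s * s) + 1 := by
      rw [hs]
      ring
    have hn1 : q ^ 2 + 1 ≠ 1 := by
      have h : 0 < q ^ 2 := by positivity
      omega
    refine ⟨Nat.minFac (q ^ 2 + 1), Nat.minFac_prime hn1, ?_, Nat.minFac_dvd _⟩
    intro h2
    have h3 : 2 ∣ q ^ 2 + 1 := by
      have h4 := Nat.minFac_dvd (q ^ 2 + 1)
      rw [h2] at h4
      exact h4
    rw [hn] at h3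
    omega
  · have hn : q ^ 2 + 1 = 2 * (2 * (s * s) + 2 * s + 1) := by
      rw [hs]
      ring
    have ht1 : 2 * (s * s) + 2 * s + 1 ≠ 1 := by omega
    refine ⟨Nat.minFac (2 * (s * s) + 2 * s + 1), Nat.minFac_prime ht1, ?_, ?_⟩
    · intro h2
      have h3 : 2 ∣ 2 * (s * s) + 2 * s + 1 := by
        have h4 := Nat.minFac_dvd (2 * (s * s) + 2 * s + 1)
        rw [h2] at h4
        exact h4
      omega
    · rw [hn]
      exact Dvd.dvd.mul_left (Nat.minFac_dvd _) 2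

/-- For an odd prime `r ∣ q ^ 2 + 1` the order of `q` modulo `r` is `4`. -/
theorem ordI_eq_four {q r : ℕ} (hr : r.Prime) (hr2 : r ≠ 2) (hdvd : r ∣ q ^ 2 + 1) :
    ordI q r = 4 := by
  haveI : Fact r.Prime := ⟨hr⟩
  unfold ordI
  have h1 : ((q : ℕ) : ZMod r) ^ 2 = -1 := by
    have h := (ZMod.natCast_eq_zero_iff (q ^ 2 + 1) r).2 hdvd
    push_cast at h
    exact eq_neg_of_add_eq_zero_left h
  have hne : (-1 : ZMod r) ≠ 1 := by
    intro h
    have h2 : ((2 : ℕ) : ZMod r) = 0 := by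
      push_cast
      linear_combination (-1 : ZMod r) * h
    have h3 := (ZMod.natCast_eq_zero_iff 2 r).1 h2
    have h4 := Nat.le_of_dvd (by norm_num) h3
    have h5 := hr.two_le
    omega
  have hnot : ¬ ((q : ℕ) : ZMod r) ^ 2 ^ 1 = 1 := by
    rw [pow_one, h1]
    exact hne
  have hfin : ((q : ℕ) : ZMod r) ^ 2 ^ (1 + 1) = 1 := by
    have h : (2 : ℕ) ^ (1 + 1) = 2 * 2 := by norm_num
    rw [h, pow_mul, h1]
    norm_num
  have h := orderOf_eq_prime_pow hnot hfin
  rw [h]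
  norm_num

/-- [MIXA] -/
theorem pkgMixA : PkgMixA.{u} := by
  intro F _ _ k a b hab hk
  have hq : 2 ≤ Fintype.card F := Fintype.one_lt_card
  obtain ⟨r, hr, hr2, hrdvd⟩ := exists_odd_prime_dvd (Fintype.card F) hq
  have hrq : ¬ r ∣ Fintype.card F := by
    intro h
    have h1 : r ∣ Fintype.card F ^ 2 := dvd_pow h (by norm_num)
    have h2 : r ∣ 1 := (Nat.dvd_add_right h1).1 hrdvd
    exact hr.one_lt.ne' (Nat.dvd_one.1 h2)
  have hi : ordI (Fintype.card F) r = 4 := ordI_eq_four hr hr2 hrdvd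
  obtain ⟨hQ, hnP⟩ := Cfsg.Agent.Lib.Helper53.OElm.pkgMinusQE F k a b hab
  obtain ⟨xg, hxmem, hxord, hxfix⟩ := Cfsg.Agent.Lib.Helper39.OElm.pkgExistME F k r a b hab hr
    hr2 hrq (by rw [hi]; exact ⟨2, rfl⟩) 1 le_rfl (by rw [hi]; omega) (fun _ => odd_one)
  rw [hi] at hxfix
  have hStd : Cfsg.Agent.Lib.Helper44.OElp.StdE (Cfsg.quadFormMinus k F a b) r
      (xg : Matrix (MI k) (MI k) F) :=
    Cfsg.Agent.Lib.Helper44.OElp.stdE_of_order hQ hr hr2 hrq hxmem hxord
  obtain ⟨hNdC, hNdN, hPerp, hCompl, hInvN, -⟩ :=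
    Cfsg.Agent.Lib.Helper25.OElp.pkgSplitE F (MI k) _ r _ hStd
  have hdimT : finrank F (MI k → F) = 2 * k + 2 := by
    rw [Module.finrank_fintype_fun_eq_card]
    simp only [Fintype.card_sum, Fintype.card_fin]
    omega
  have hdimCN := Submodule.finrank_add_eq_of_isCompl hCompl
  have hdimN : finrank F (movSp (xg : Matrix (MI k) (MI k) F)) = 4 := by omega
  have hDiv := Cfsg.Agent.Lib.Helper44.OElp.pkgDivE F (MI k) _ r _ hStd
    (movSp (xg : Matrix (MI k) (MI k) F)) le_rfl hInvN hNdN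
  have hnPN : ¬ Plus (Cfsg.quadFormMinus k F a b) (movSp (xg : Matrix (MI k) (MI k) F)) := by
    rw [hDiv.2, hi, hdimN]
    rintro (h | h)
    · rw [Nat.odd_iff] at h
      omega
    · rw [Nat.even_iff] at h
      omega
  have hSum := Cfsg.Agent.Lib.Helper1.OElp.pkgSumE F (MI k) _ hQ
    (fixSp (xg : Matrix (MI k) (MI k) F)) (movSp (xg : Matrix (MI k) (MI k) F)) hNdC hNdN hPerp
  have hPlusC : Plus (Cfsg.quadFormMinus k F a b) (fixSp (xg : Matrix (MI k) (MI k) F)) := by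
    by_contra hcon
    have h1 := (hSum.2.2 ⟨k - 1, by omega⟩ ⟨2, by omega⟩).2
      ⟨fun h => absurd h hcon, fun h => absurd h hnPN⟩
    rw [hCompl.sup_eq_top] at h1
    exact hnP h1
  have hpowmat : ∀ j : ℕ, matM ((⟨xg, hxmem⟩ : ↥(GM k F a b)) ^ j) =
      (xg : Matrix (MI k) (MI k) F) ^ j := by
    intro j
    unfold matM
    rw [Subgroup.coe_pow, Units.val_pow_eq_pow_val]
  refine ⟨r, ⟨xg, hxmem⟩, hr, hr2, hrdvd, ?_, ?_, hNdC, hPlusC, hPerp, hCompl, ?_⟩
  · apply Subtype.ext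
    rw [Subgroup.coe_pow, Subgroup.coe_one]
    show xg ^ r = 1
    rw [← hxord]
    exact pow_orderOf_eq_one xg
  · show finrank F (fixSp (xg : Matrix (MI k) (MI k) F)) = 2 * k - 2
    omega
  · intro v hv hv0 w hw
    have hStdQ : Cfsg.Agent.Lib.Helper99.OTSP.StdQ (Cfsg.quadFormMinus k F a b) r
        (xg : Matrix (MI k) (MI k) F) :=
      ⟨hStd.nondeg, hStd.prime, hStd.ne_two, hStd.ndvd, hStd.pow, hStd.isom⟩
    obtain ⟨S, hS⟩ : ∃ S : Submodule F (MI k → F), S = Submodule.span F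
        (Set.range fun j : ℕ => matM ((⟨xg, hxmem⟩ : ↥(GM k F a b)) ^ j) *ᵥ v) := ⟨_, rfl⟩
    rw [← hS]
    have hInvN' : ∀ u ∈ movSp (xg : Matrix (MI k) (MI k) F),
        (xg : Matrix (MI k) (MI k) F) *ᵥ u ∈ movSp (xg : Matrix (MI k) (MI k) F) := by
      intro u hu
      apply hInvN
      exact ⟨u, hu, Matrix.toLin'_apply _ _⟩
    have hSle : S ≤ movSp (xg : Matrix (MI k) (MI k) F) := by
      rw [hS, Submodule.span_le]
      intro y hy
      obtain ⟨j, rfl⟩ := hy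
      change matM ((⟨xg, hxmem⟩ : ↥(GM k F a b)) ^ j) *ᵥ v ∈
        movSp (xg : Matrix (MI k) (MI k) F)
      rw [hpowmat]
      induction j with
      | zero =>
        rw [pow_zero, Matrix.one_mulVec]
        exact hv
      | succ j ih =>
        rw [pow_succ', ← Matrix.mulVec_mulVec]
        exact hInvN' _ ih
    have hSinv : Inv (xg : Matrix (MI k) (MI k) F) S := by
      change Submodule.map (Matrix.toLin' (xg : Matrix (MI k) (MI k) F)) S ≤ S
      rw [hS, Submodule.map_span, Submodule.span_le]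
      rintro _ ⟨_, ⟨j, rfl⟩, rfl⟩
      apply Submodule.subset_span
      refine ⟨j + 1, ?_⟩
      change matM ((⟨xg, hxmem⟩ : ↥(GM k F a b)) ^ (j + 1)) *ᵥ v =
        Matrix.toLin' (xg : Matrix (MI k) (MI k) F)
          (matM ((⟨xg, hxmem⟩ : ↥(GM k F a b)) ^ j) *ᵥ v)
      rw [hpowmat, hpowmat, Matrix.toLin'_apply, Matrix.mulVec_mulVec, pow_succ']
    have hdim := Cfsg.Agent.Lib.Helper34.OTSP.pkgDimI F (MI k) _ r _ hStdQ S hSle hSinv
    rw [hi] at hdim
    have hle := Submodule.finrank_mono hSle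
    have hvS : v ∈ S := by
      rw [hS]
      apply Submodule.subset_span
      refine ⟨0, ?_⟩
      change matM ((⟨xg, hxmem⟩ : ↥(GM k F a b)) ^ 0) *ᵥ v = v
      rw [hpowmat, pow_zero, Matrix.one_mulVec]
    have hS0 : finrank F S ≠ 0 := by
      intro h0
      have h1 := Submodule.finrank_eq_zero.1 h0
      rw [h1] at hvS
      exact hv0 ((Submodule.mem_bot F).1 hvS)
    have hSeq : S = movSp (xg : Matrix (MI k) (MI k) F) := by
      apply Submodule.eq_of_le_of_finrank_eq hSle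
      obtain ⟨c, hc⟩ := hdim
      omega
    rw [hSeq]
    exact hw

end Cfsg.Agent.Lib.Helper53.OMG
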